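import Mathlib
import Cfsg.Agent.Lib.Helper56.TC
import Cfsg.Agent.Lib.Helper56.ON122760.D
set_option autoImplicit false
set_option maxRecDepth 1000000

namespace Cfsg.Agent.Lib.Helper56.ON122760

open Cfsg.Agent.Lib.Helper56.TC Cfsg.Agent.Lib.Helper56.TC.Tabs

theorem cN_0 : allRange (fun x => forceN T.chkName x) 0 646 = true := by decide +kernel
theorem cN_646 : allRange (fun x => forceN T.chkName x) 646 660 = true := by decide +kernel
theorem cN_1306 : allRange (fun x => forceN T.chkName x) 1306 672 = true := by decide +kernel
theorem cN_1978 : allRange (fun x => forceN T.chkName x) 1978 663 = true := by decide +kernel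
theorem cN_2641 : allRange (fun x => forceN T.chkName x) 2641 666 = true := by decide +kernel
theorem cN_3307 : allRange (fun x => forceN T.chkName x) 3307 642 = true := by decide +kernel
theorem cN_3949 : allRange (fun x => forceN T.chkName x) 3949 658 = true := by decide +kernel
theorem cN_4607 : allRange (fun x => forceN T.chkName x) 4607 664 = true := by decide +kernel
theorem cN_5271 : allRange (fun x => forceN T.chkName x) 5271 642 = true := by decide +kernel
theorem cN_5913 : allRange (fun x => forceN T.chkName x) 5913 639 = true := by decide +kernel
theorem cN_6552 : allRange (fun x => forceN T.chkName x) 6552 672 = true := by decide +kernel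
theorem cN_7224 : allRange (fun x => forceN T.chkName x) 7224 623 = true := by decide +kernel

end Cfsg.Agent.Lib.Helper56.ON122760
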