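import Mathlib
import Cfsg.Agent.Lib.Helper56.TC
import Cfsg.Agent.Lib.Helper56.ON122760.D
set_option autoImplicit false
set_option maxRecDepth 1000000

namespace Cfsg.Agent.Lib.Helper56.ON122760

open Cfsg.Agent.Lib.Helper56.TC Cfsg.Agent.Lib.Helper56.TC.Tabs

theorem cN_7847 : allRange (fun x => forceN T.chkName x) 7847 659 = true := by decide +kernel
theorem cN_8506 : allRange (fun x => forceN T.chkName x) 8506 650 = true := by decide +kernel
theorem cN_9156 : allRange (fun x => forceN T.chkName x) 9156 648 = true := by decide +kernel
theorem cN_9804 : allRange (fun x => forceN T.chkName x) 9804 652 = true := by decide +kernel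
theorem cN_10456 : allRange (fun x => forceN T.chkName x) 10456 649 = true := by decide +kernel
theorem cN_11105 : allRange (fun x => forceN T.chkName x) 11105 639 = true := by decide +kernel
theorem cN_11744 : allRange (fun x => forceN T.chkName x) 11744 665 = true := by decide +kernel
theorem cN_12409 : allRange (fun x => forceN T.chkName x) 12409 649 = true := by decide +kernel
theorem cN_13058 : allRange (fun x => forceN T.chkName x) 13058 661 = true := by decide +kernel
theorem cN_13719 : allRange (fun x => forceN T.chkName x) 13719 652 = true := by decide +kernel
theorem cN_14371 : allRange (fun x => forceN T.chkName x) 14371 642 = true := by decide +kernel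
theorem cN_15013 : allRange (fun x => forceN T.chkName x) 15013 627 = true := by decide +kernel

end Cfsg.Agent.Lib.Helper56.ON122760
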