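import Mathlib
import Cfsg.Agent.Lib.Helper56.TC
import Cfsg.Agent.Lib.Helper56.ON122760.D
set_option autoImplicit false
set_option maxRecDepth 1000000

namespace Cfsg.Agent.Lib.Helper56.ON122760

open Cfsg.Agent.Lib.Helper56.TC Cfsg.Agent.Lib.Helper56.TC.Tabs

theorem cN_75429 : allRange (fun x => forceN T.chkName x) 75429 557 = true := by decide +kernel
theorem cN_75986 : allRange (fun x => forceN T.chkName x) 75986 559 = true := by decide +kernel
theorem cN_76545 : allRange (fun x => forceN T.chkName x) 76545 545 = true := by decide +kernel
theorem cN_77090 : allRange (fun x => forceN T.chkName x) 77090 562 = true := by decide +kernel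
theorem cN_77652 : allRange (fun x => forceN T.chkName x) 77652 559 = true := by decide +kernel
theorem cN_78211 : allRange (fun x => forceN T.chkName x) 78211 551 = true := by decide +kernel
theorem cN_78762 : allRange (fun x => forceN T.chkName x) 78762 551 = true := by decide +kernel
theorem cN_79313 : allRange (fun x => forceN T.chkName x) 79313 546 = true := by decide +kernel
theorem cN_79859 : allRange (fun x => forceN T.chkName x) 79859 539 = true := by decide +kernel
theorem cN_80398 : allRange (fun x => forceN T.chkName x) 80398 537 = true := by decide +kernel
theorem cN_80935 : allRange (fun x => forceN T.chkName x) 80935 534 = true := by decide +kernel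
theorem cN_81469 : allRange (fun x => forceN T.chkName x) 81469 546 = true := by decide +kernel

end Cfsg.Agent.Lib.Helper56.ON122760
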