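import Mathlib
import Cfsg.Agent.Lib.Helper56.TC
import Cfsg.Agent.Lib.Helper56.ON122760.D
set_option autoImplicit false
set_option maxRecDepth 1000000

namespace Cfsg.Agent.Lib.Helper56.ON122760

open Cfsg.Agent.Lib.Helper56.TC Cfsg.Agent.Lib.Helper56.TC.Tabs

theorem cN_82015 : allRange (fun x => forceN T.chkName x) 82015 538 = true := by decide +kernel
theorem cN_82553 : allRange (fun x => forceN T.chkName x) 82553 546 = true := by decide +kernel
theorem cN_83099 : allRange (fun x => forceN T.chkName x) 83099 543 = true := by decide +kernel
theorem cN_83642 : allRange (fun x => forceN T.chkName x) 83642 553 = true := by decide +kernel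
theorem cN_84195 : allRange (fun x => forceN T.chkName x) 84195 556 = true := by decide +kernel
theorem cN_84751 : allRange (fun x => forceN T.chkName x) 84751 562 = true := by decide +kernel
theorem cN_85313 : allRange (fun x => forceN T.chkName x) 85313 566 = true := by decide +kernel
theorem cN_85879 : allRange (fun x => forceN T.chkName x) 85879 548 = true := by decide +kernel
theorem cN_86427 : allRange (fun x => forceN T.chkName x) 86427 550 = true := by decide +kernel
theorem cN_86977 : allRange (fun x => forceN T.chkName x) 86977 555 = true := by decide +kernel
theorem cN_87532 : allRange (fun x => forceN T.chkName x) 87532 563 = true := by decide +kernel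
theorem cN_88095 : allRange (fun x => forceN T.chkName x) 88095 558 = true := by decide +kernel

end Cfsg.Agent.Lib.Helper56.ON122760
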