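import Mathlib
import Cfsg.Agent.Lib.Helper56.TC
import Cfsg.Agent.Lib.Helper56.ON122760.D
set_option autoImplicit false
set_option maxRecDepth 1000000

namespace Cfsg.Agent.Lib.Helper56.ON122760

open Cfsg.Agent.Lib.Helper56.TC Cfsg.Agent.Lib.Helper56.TC.Tabs

theorem cN_88653 : allRange (fun x => forceN T.chkName x) 88653 559 = true := by decide +kernel
theorem cN_89212 : allRange (fun x => forceN T.chkName x) 89212 549 = true := by decide +kernel
theorem cN_89761 : allRange (fun x => forceN T.chkName x) 89761 542 = true := by decide +kernel
theorem cN_90303 : allRange (fun x => forceN T.chkName x) 90303 560 = true := by decide +kernel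
theorem cN_90863 : allRange (fun x => forceN T.chkName x) 90863 570 = true := by decide +kernel
theorem cN_91433 : allRange (fun x => forceN T.chkName x) 91433 556 = true := by decide +kernel
theorem cN_91989 : allRange (fun x => forceN T.chkName x) 91989 565 = true := by decide +kernel
theorem cN_92554 : allRange (fun x => forceN T.chkName x) 92554 556 = true := by decide +kernel
theorem cN_93110 : allRange (fun x => forceN T.chkName x) 93110 557 = true := by decide +kernel
theorem cN_93667 : allRange (fun x => forceN T.chkName x) 93667 559 = true := by decide +kernel
theorem cN_94226 : allRange (fun x => forceN T.chkName x) 94226 546 = true := by decide +kernel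
theorem cN_94772 : allRange (fun x => forceN T.chkName x) 94772 560 = true := by decide +kernel

end Cfsg.Agent.Lib.Helper56.ON122760
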