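import Mathlib
import Cfsg.Agent.Lib.Helper56.TC
import Cfsg.Agent.Lib.Helper56.ON122760.D
set_option autoImplicit false
set_option maxRecDepth 1000000

namespace Cfsg.Agent.Lib.Helper56.ON122760

open Cfsg.Agent.Lib.Helper56.TC Cfsg.Agent.Lib.Helper56.TC.Tabs

theorem cN_95332 : allRange (fun x => forceN T.chkName x) 95332 563 = true := by decide +kernel
theorem cN_95895 : allRange (fun x => forceN T.chkName x) 95895 561 = true := by decide +kernel
theorem cN_96456 : allRange (fun x => forceN T.chkName x) 96456 557 = true := by decide +kernel
theorem cN_97013 : allRange (fun x => forceN T.chkName x) 97013 560 = true := by decide +kernel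
theorem cN_97573 : allRange (fun x => forceN T.chkName x) 97573 559 = true := by decide +kernel
theorem cN_98132 : allRange (fun x => forceN T.chkName x) 98132 571 = true := by decide +kernel
theorem cN_98703 : allRange (fun x => forceN T.chkName x) 98703 574 = true := by decide +kernel
theorem cN_99277 : allRange (fun x => forceN T.chkName x) 99277 562 = true := by decide +kernel
theorem cN_99839 : allRange (fun x => forceN T.chkName x) 99839 557 = true := by decide +kernel
theorem cN_100396 : allRange (fun x => forceN T.chkName x) 100396 562 = true := by decide +kernel
theorem cN_100958 : allRange (fun x => forceN T.chkName x) 100958 569 = true := by decide +kernel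
theorem cN_101527 : allRange (fun x => forceN T.chkName x) 101527 569 = true := by decide +kernel

end Cfsg.Agent.Lib.Helper56.ON122760
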