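import Mathlib
import Cfsg.Agent.Lib.Helper56.TC
import Cfsg.Agent.Lib.Helper56.ON122760.D
set_option autoImplicit false
set_option maxRecDepth 1000000

namespace Cfsg.Agent.Lib.Helper56.ON122760

open Cfsg.Agent.Lib.Helper56.TC Cfsg.Agent.Lib.Helper56.TC.Tabs

theorem cN_102096 : allRange (fun x => forceN T.chkName x) 102096 573 = true := by decide +kernel
theorem cN_102669 : allRange (fun x => forceN T.chkName x) 102669 555 = true := by decide +kernel
theorem cN_103224 : allRange (fun x => forceN T.chkName x) 103224 574 = true := by decide +kernel
theorem cN_103798 : allRange (fun x => forceN T.chkName x) 103798 571 = true := by decide +kernel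
theorem cN_104369 : allRange (fun x => forceN T.chkName x) 104369 556 = true := by decide +kernel
theorem cN_104925 : allRange (fun x => forceN T.chkName x) 104925 550 = true := by decide +kernel
theorem cN_105475 : allRange (fun x => forceN T.chkName x) 105475 569 = true := by decide +kernel
theorem cN_106044 : allRange (fun x => forceN T.chkName x) 106044 556 = true := by decide +kernel
theorem cN_106600 : allRange (fun x => forceN T.chkName x) 106600 567 = true := by decide +kernel
theorem cN_107167 : allRange (fun x => forceN T.chkName x) 107167 572 = true := by decide +kernel
theorem cN_107739 : allRange (fun x => forceN T.chkName x) 107739 567 = true := by decide +kernel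
theorem cN_108306 : allRange (fun x => forceN T.chkName x) 108306 562 = true := by decide +kernel

end Cfsg.Agent.Lib.Helper56.ON122760
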