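import Mathlib
import Cfsg.Agent.Lib.Helper56.TC
import Cfsg.Agent.Lib.Helper56.ON122760.D
set_option autoImplicit false
set_option maxRecDepth 1000000

namespace Cfsg.Agent.Lib.Helper56.ON122760

open Cfsg.Agent.Lib.Helper56.TC Cfsg.Agent.Lib.Helper56.TC.Tabs

theorem cN_108868 : allRange (fun x => forceN T.chkName x) 108868 580 = true := by decide +kernel
theorem cN_109448 : allRange (fun x => forceN T.chkName x) 109448 581 = true := by decide +kernel
theorem cN_110029 : allRange (fun x => forceN T.chkName x) 110029 569 = true := by decide +kernel
theorem cN_110598 : allRange (fun x => forceN T.chkName x) 110598 584 = true := by decide +kernel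
theorem cN_111182 : allRange (fun x => forceN T.chkName x) 111182 578 = true := by decide +kernel
theorem cN_111760 : allRange (fun x => forceN T.chkName x) 111760 581 = true := by decide +kernel
theorem cN_112341 : allRange (fun x => forceN T.chkName x) 112341 578 = true := by decide +kernel
theorem cN_112919 : allRange (fun x => forceN T.chkName x) 112919 563 = true := by decide +kernel
theorem cN_113482 : allRange (fun x => forceN T.chkName x) 113482 578 = true := by decide +kernel
theorem cN_114060 : allRange (fun x => forceN T.chkName x) 114060 578 = true := by decide +kernel
theorem cN_114638 : allRange (fun x => forceN T.chkName x) 114638 582 = true := by decide +kernel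
theorem cN_115220 : allRange (fun x => forceN T.chkName x) 115220 584 = true := by decide +kernel

end Cfsg.Agent.Lib.Helper56.ON122760
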