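import Mathlib
import Cfsg.Agent.Lib.Helper56.TC
import Cfsg.Agent.Lib.Helper56.ON122760.D
set_option autoImplicit false
set_option maxRecDepth 1000000

namespace Cfsg.Agent.Lib.Helper56.ON122760

open Cfsg.Agent.Lib.Helper56.TC Cfsg.Agent.Lib.Helper56.TC.Tabs

theorem cN_115804 : allRange (fun x => forceN T.chkName x) 115804 583 = true := by decide +kernel
theorem cN_116387 : allRange (fun x => forceN T.chkName x) 116387 582 = true := by decide +kernel
theorem cN_116969 : allRange (fun x => forceN T.chkName x) 116969 597 = true := by decide +kernel
theorem cN_117566 : allRange (fun x => forceN T.chkName x) 117566 591 = true := by decide +kernel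
theorem cN_118157 : allRange (fun x => forceN T.chkName x) 118157 603 = true := by decide +kernel
theorem cN_118760 : allRange (fun x => forceN T.chkName x) 118760 592 = true := by decide +kernel
theorem cN_119352 : allRange (fun x => forceN T.chkName x) 119352 595 = true := by decide +kernel
theorem cN_119947 : allRange (fun x => forceN T.chkName x) 119947 602 = true := by decide +kernel
theorem cN_120549 : allRange (fun x => forceN T.chkName x) 120549 617 = true := by decide +kernel
theorem cN_121166 : allRange (fun x => forceN T.chkName x) 121166 617 = true := by decide +kernel
theorem cN_121783 : allRange (fun x => forceN T.chkName x) 121783 625 = true := by decide +kernel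
theorem cN_122408 : allRange (fun x => forceN T.chkName x) 122408 698 = true := by decide +kernel

end Cfsg.Agent.Lib.Helper56.ON122760
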