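import Mathlib
import Cfsg.Agent.Lib.Helper56.TC
import Cfsg.Agent.Lib.Helper56.ON122760.D
set_option autoImplicit false
set_option maxRecDepth 1000000

namespace Cfsg.Agent.Lib.Helper56.ON122760

open Cfsg.Agent.Lib.Helper56.TC Cfsg.Agent.Lib.Helper56.TC.Tabs

theorem cN_123106 : allRange (fun x => forceN T.chkName x) 123106 757 = true := by decide +kernel
theorem cN_123863 : allRange (fun x => forceN T.chkName x) 123863 742 = true := by decide +kernel
theorem cN_124605 : allRange (fun x => forceN T.chkName x) 124605 735 = true := by decide +kernel
theorem cN_125340 : allRange (fun x => forceN T.chkName x) 125340 712 = true := by decide +kernel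
theorem cN_126052 : allRange (fun x => forceN T.chkName x) 126052 727 = true := by decide +kernel
theorem cN_126779 : allRange (fun x => forceN T.chkName x) 126779 762 = true := by decide +kernel
theorem cN_127541 : allRange (fun x => forceN T.chkName x) 127541 725 = true := by decide +kernel
theorem cN_128266 : allRange (fun x => forceN T.chkName x) 128266 697 = true := by decide +kernel
theorem cN_128963 : allRange (fun x => forceN T.chkName x) 128963 719 = true := by decide +kernel
theorem cN_129682 : allRange (fun x => forceN T.chkName x) 129682 713 = true := by decide +kernel
theorem cN_130395 : allRange (fun x => forceN T.chkName x) 130395 713 = true := by decide +kernel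
theorem cN_131108 : allRange (fun x => forceN T.chkName x) 131108 710 = true := by decide +kernel

end Cfsg.Agent.Lib.Helper56.ON122760
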