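import Mathlib
import Cfsg.Agent.Lib.Helper56.TC
import Cfsg.Agent.Lib.Helper56.ON122760.D
set_option autoImplicit false
set_option maxRecDepth 1000000

namespace Cfsg.Agent.Lib.Helper56.ON122760

open Cfsg.Agent.Lib.Helper56.TC Cfsg.Agent.Lib.Helper56.TC.Tabs

theorem cN_131818 : allRange (fun x => forceN T.chkName x) 131818 731 = true := by decide +kernel
theorem cN_132549 : allRange (fun x => forceN T.chkName x) 132549 711 = true := by decide +kernel
theorem cN_133260 : allRange (fun x => forceN T.chkName x) 133260 691 = true := by decide +kernel
theorem cN_133951 : allRange (fun x => forceN T.chkName x) 133951 709 = true := by decide +kernel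
theorem cN_134660 : allRange (fun x => forceN T.chkName x) 134660 711 = true := by decide +kernel
theorem cN_135371 : allRange (fun x => forceN T.chkName x) 135371 696 = true := by decide +kernel
theorem cN_136067 : allRange (fun x => forceN T.chkName x) 136067 695 = true := by decide +kernel
theorem cN_136762 : allRange (fun x => forceN T.chkName x) 136762 677 = true := by decide +kernel
theorem cN_137439 : allRange (fun x => forceN T.chkName x) 137439 671 = true := by decide +kernel
theorem cN_138110 : allRange (fun x => forceN T.chkName x) 138110 692 = true := by decide +kernel
theorem cN_138802 : allRange (fun x => forceN T.chkName x) 138802 711 = true := by decide +kernel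
theorem cN_139513 : allRange (fun x => forceN T.chkName x) 139513 722 = true := by decide +kernel

end Cfsg.Agent.Lib.Helper56.ON122760
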