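import Mathlib
import Cfsg.Agent.Lib.Helper56.TC
import Cfsg.Agent.Lib.Helper56.ON122760.D
set_option autoImplicit false
set_option maxRecDepth 1000000

namespace Cfsg.Agent.Lib.Helper56.ON122760

open Cfsg.Agent.Lib.Helper56.TC Cfsg.Agent.Lib.Helper56.TC.Tabs

theorem cN_140235 : allRange (fun x => forceN T.chkName x) 140235 705 = true := by decide +kernel
theorem cN_140940 : allRange (fun x => forceN T.chkName x) 140940 714 = true := by decide +kernel
theorem cN_141654 : allRange (fun x => forceN T.chkName x) 141654 716 = true := by decide +kernel
theorem cN_142370 : allRange (fun x => forceN T.chkName x) 142370 717 = true := by decide +kernel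
theorem cN_143087 : allRange (fun x => forceN T.chkName x) 143087 718 = true := by decide +kernel
theorem cN_143805 : allRange (fun x => forceN T.chkName x) 143805 754 = true := by decide +kernel
theorem cN_144559 : allRange (fun x => forceN T.chkName x) 144559 726 = true := by decide +kernel
theorem cN_145285 : allRange (fun x => forceN T.chkName x) 145285 715 = true := by decide +kernel
theorem cN_146000 : allRange (fun x => forceN T.chkName x) 146000 708 = true := by decide +kernel
theorem cN_146708 : allRange (fun x => forceN T.chkName x) 146708 724 = true := by decide +kernel
theorem cN_147432 : allRange (fun x => forceN T.chkName x) 147432 701 = true := by decide +kernel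
theorem cN_148133 : allRange (fun x => forceN T.chkName x) 148133 716 = true := by decide +kernel

end Cfsg.Agent.Lib.Helper56.ON122760
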