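import Mathlib
import Cfsg.Agent.Lib.Helper56.TC
import Cfsg.Agent.Lib.Helper56.ON122760.D
set_option autoImplicit false
set_option maxRecDepth 1000000

namespace Cfsg.Agent.Lib.Helper56.ON122760

open Cfsg.Agent.Lib.Helper56.TC Cfsg.Agent.Lib.Helper56.TC.Tabs

theorem cN_15640 : allRange (fun x => forceN T.chkName x) 15640 626 = true := by decide +kernel
theorem cN_16266 : allRange (fun x => forceN T.chkName x) 16266 659 = true := by decide +kernel
theorem cN_16925 : allRange (fun x => forceN T.chkName x) 16925 661 = true := by decide +kernel
theorem cN_17586 : allRange (fun x => forceN T.chkName x) 17586 637 = true := by decide +kernel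
theorem cN_18223 : allRange (fun x => forceN T.chkName x) 18223 649 = true := by decide +kernel
theorem cN_18872 : allRange (fun x => forceN T.chkName x) 18872 654 = true := by decide +kernel
theorem cN_19526 : allRange (fun x => forceN T.chkName x) 19526 670 = true := by decide +kernel
theorem cN_20196 : allRange (fun x => forceN T.chkName x) 20196 645 = true := by decide +kernel
theorem cN_20841 : allRange (fun x => forceN T.chkName x) 20841 639 = true := by decide +kernel
theorem cN_21480 : allRange (fun x => forceN T.chkName x) 21480 652 = true := by decide +kernel
theorem cN_22132 : allRange (fun x => forceN T.chkName x) 22132 656 = true := by decide +kernel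
theorem cN_22788 : allRange (fun x => forceN T.chkName x) 22788 641 = true := by decide +kernel

end Cfsg.Agent.Lib.Helper56.ON122760
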