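import Mathlib
import Cfsg.Agent.Lib.Helper56.TC
import Cfsg.Agent.Lib.Helper56.ON122760.D
set_option autoImplicit false
set_option maxRecDepth 1000000

namespace Cfsg.Agent.Lib.Helper56.ON122760

open Cfsg.Agent.Lib.Helper56.TC Cfsg.Agent.Lib.Helper56.TC.Tabs

theorem cN_148849 : allRange (fun x => forceN T.chkName x) 148849 713 = true := by decide +kernel
theorem cN_149562 : allRange (fun x => forceN T.chkName x) 149562 699 = true := by decide +kernel
theorem cN_150261 : allRange (fun x => forceN T.chkName x) 150261 703 = true := by decide +kernel
theorem cN_150964 : allRange (fun x => forceN T.chkName x) 150964 697 = true := by decide +kernel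
theorem cN_151661 : allRange (fun x => forceN T.chkName x) 151661 700 = true := by decide +kernel
theorem cN_152361 : allRange (fun x => forceN T.chkName x) 152361 706 = true := by decide +kernel
theorem cN_153067 : allRange (fun x => forceN T.chkName x) 153067 695 = true := by decide +kernel
theorem cN_153762 : allRange (fun x => forceN T.chkName x) 153762 710 = true := by decide +kernel
theorem cN_154472 : allRange (fun x => forceN T.chkName x) 154472 715 = true := by decide +kernel
theorem cN_155187 : allRange (fun x => forceN T.chkName x) 155187 700 = true := by decide +kernel
theorem cN_155887 : allRange (fun x => forceN T.chkName x) 155887 688 = true := by decide +kernel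
theorem cN_156575 : allRange (fun x => forceN T.chkName x) 156575 733 = true := by decide +kernel

end Cfsg.Agent.Lib.Helper56.ON122760
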