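import Mathlib
import Cfsg.Agent.Lib.Helper56.TC
import Cfsg.Agent.Lib.Helper56.ON122760.D
set_option autoImplicit false
set_option maxRecDepth 1000000

namespace Cfsg.Agent.Lib.Helper56.ON122760

open Cfsg.Agent.Lib.Helper56.TC Cfsg.Agent.Lib.Helper56.TC.Tabs

theorem cN_157308 : allRange (fun x => forceN T.chkName x) 157308 726 = true := by decide +kernel
theorem cN_158034 : allRange (fun x => forceN T.chkName x) 158034 760 = true := by decide +kernel
theorem cN_158794 : allRange (fun x => forceN T.chkName x) 158794 760 = true := by decide +kernel
theorem cN_159554 : allRange (fun x => forceN T.chkName x) 159554 763 = true := by decide +kernel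
theorem cN_160317 : allRange (fun x => forceN T.chkName x) 160317 762 = true := by decide +kernel
theorem cN_161079 : allRange (fun x => forceN T.chkName x) 161079 760 = true := by decide +kernel
theorem cN_161839 : allRange (fun x => forceN T.chkName x) 161839 736 = true := by decide +kernel
theorem cN_162575 : allRange (fun x => forceN T.chkName x) 162575 747 = true := by decide +kernel
theorem cN_163322 : allRange (fun x => forceN T.chkName x) 163322 766 = true := by decide +kernel
theorem cN_164088 : allRange (fun x => forceN T.chkName x) 164088 759 = true := by decide +kernel
theorem cN_164847 : allRange (fun x => forceN T.chkName x) 164847 730 = true := by decide +kernel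
theorem cN_165577 : allRange (fun x => forceN T.chkName x) 165577 734 = true := by decide +kernel

end Cfsg.Agent.Lib.Helper56.ON122760
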