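import Mathlib
import Cfsg.Agent.Lib.Helper56.TC
import Cfsg.Agent.Lib.Helper56.ON122760.D
set_option autoImplicit false
set_option maxRecDepth 1000000

namespace Cfsg.Agent.Lib.Helper56.ON122760

open Cfsg.Agent.Lib.Helper56.TC Cfsg.Agent.Lib.Helper56.TC.Tabs

theorem cN_166311 : allRange (fun x => forceN T.chkName x) 166311 732 = true := by decide +kernel
theorem cN_167043 : allRange (fun x => forceN T.chkName x) 167043 742 = true := by decide +kernel
theorem cN_167785 : allRange (fun x => forceN T.chkName x) 167785 731 = true := by decide +kernel
theorem cN_168516 : allRange (fun x => forceN T.chkName x) 168516 754 = true := by decide +kernel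
theorem cN_169270 : allRange (fun x => forceN T.chkName x) 169270 753 = true := by decide +kernel
theorem cN_170023 : allRange (fun x => forceN T.chkName x) 170023 737 = true := by decide +kernel
theorem cN_170760 : allRange (fun x => forceN T.chkName x) 170760 737 = true := by decide +kernel
theorem cN_171497 : allRange (fun x => forceN T.chkName x) 171497 751 = true := by decide +kernel
theorem cN_172248 : allRange (fun x => forceN T.chkName x) 172248 763 = true := by decide +kernel
theorem cN_173011 : allRange (fun x => forceN T.chkName x) 173011 770 = true := by decide +kernel
theorem cN_173781 : allRange (fun x => forceN T.chkName x) 173781 782 = true := by decide +kernel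
theorem cN_174563 : allRange (fun x => forceN T.chkName x) 174563 790 = true := by decide +kernel

end Cfsg.Agent.Lib.Helper56.ON122760
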