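import Mathlib
import Cfsg.Agent.Lib.Helper56.TC
import Cfsg.Agent.Lib.Helper56.ON122760.D
set_option autoImplicit false
set_option maxRecDepth 1000000

namespace Cfsg.Agent.Lib.Helper56.ON122760

open Cfsg.Agent.Lib.Helper56.TC Cfsg.Agent.Lib.Helper56.TC.Tabs

theorem cN_175353 : allRange (fun x => forceN T.chkName x) 175353 781 = true := by decide +kernel
theorem cN_176134 : allRange (fun x => forceN T.chkName x) 176134 767 = true := by decide +kernel
theorem cN_176901 : allRange (fun x => forceN T.chkName x) 176901 757 = true := by decide +kernel
theorem cN_177658 : allRange (fun x => forceN T.chkName x) 177658 764 = true := by decide +kernel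
theorem cN_178422 : allRange (fun x => forceN T.chkName x) 178422 755 = true := by decide +kernel
theorem cN_179177 : allRange (fun x => forceN T.chkName x) 179177 742 = true := by decide +kernel
theorem cN_179919 : allRange (fun x => forceN T.chkName x) 179919 760 = true := by decide +kernel
theorem cN_180679 : allRange (fun x => forceN T.chkName x) 180679 766 = true := by decide +kernel
theorem cN_181445 : allRange (fun x => forceN T.chkName x) 181445 760 = true := by decide +kernel
theorem cN_182205 : allRange (fun x => forceN T.chkName x) 182205 780 = true := by decide +kernel
theorem cN_182985 : allRange (fun x => forceN T.chkName x) 182985 765 = true := by decide +kernel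
theorem cN_183750 : allRange (fun x => forceN T.chkName x) 183750 756 = true := by decide +kernel

end Cfsg.Agent.Lib.Helper56.ON122760
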