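import Mathlib
import Cfsg.Agent.Lib.Helper56.TC
import Cfsg.Agent.Lib.Helper56.ON122760.D
set_option autoImplicit false
set_option maxRecDepth 1000000

namespace Cfsg.Agent.Lib.Helper56.ON122760

open Cfsg.Agent.Lib.Helper56.TC Cfsg.Agent.Lib.Helper56.TC.Tabs

theorem cN_184506 : allRange (fun x => forceN T.chkName x) 184506 768 = true := by decide +kernel
theorem cN_185274 : allRange (fun x => forceN T.chkName x) 185274 762 = true := by decide +kernel
theorem cN_186036 : allRange (fun x => forceN T.chkName x) 186036 772 = true := by decide +kernel
theorem cN_186808 : allRange (fun x => forceN T.chkName x) 186808 775 = true := by decide +kernel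
theorem cN_187583 : allRange (fun x => forceN T.chkName x) 187583 772 = true := by decide +kernel
theorem cN_188355 : allRange (fun x => forceN T.chkName x) 188355 776 = true := by decide +kernel
theorem cN_189131 : allRange (fun x => forceN T.chkName x) 189131 778 = true := by decide +kernel
theorem cN_189909 : allRange (fun x => forceN T.chkName x) 189909 774 = true := by decide +kernel
theorem cN_190683 : allRange (fun x => forceN T.chkName x) 190683 775 = true := by decide +kernel
theorem cN_191458 : allRange (fun x => forceN T.chkName x) 191458 773 = true := by decide +kernel
theorem cN_192231 : allRange (fun x => forceN T.chkName x) 192231 780 = true := by decide +kernel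
theorem cN_193011 : allRange (fun x => forceN T.chkName x) 193011 785 = true := by decide +kernel

end Cfsg.Agent.Lib.Helper56.ON122760
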