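import Mathlib
import Cfsg.Agent.Lib.Helper56.TC
import Cfsg.Agent.Lib.Helper56.ON122760.D
set_option autoImplicit false
set_option maxRecDepth 1000000

namespace Cfsg.Agent.Lib.Helper56.ON122760

open Cfsg.Agent.Lib.Helper56.TC Cfsg.Agent.Lib.Helper56.TC.Tabs

theorem cN_193796 : allRange (fun x => forceN T.chkName x) 193796 764 = true := by decide +kernel
theorem cN_194560 : allRange (fun x => forceN T.chkName x) 194560 772 = true := by decide +kernel
theorem cN_195332 : allRange (fun x => forceN T.chkName x) 195332 770 = true := by decide +kernel
theorem cN_196102 : allRange (fun x => forceN T.chkName x) 196102 771 = true := by decide +kernel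
theorem cN_196873 : allRange (fun x => forceN T.chkName x) 196873 682 = true := by decide +kernel
theorem cV_0 : allRange (fun x => forceN T.chkV x) 0 727 = true := by decide +kernel
theorem cV_727 : allRange (fun x => forceN T.chkV x) 727 727 = true := by decide +kernel
theorem cV_1454 : allRange (fun x => forceN T.chkV x) 1454 727 = true := by decide +kernel
theorem cV_2181 : allRange (fun x => forceN T.chkV x) 2181 727 = true := by decide +kernel
theorem cV_2908 : allRange (fun x => forceN T.chkV x) 2908 727 = true := by decide +kernel
theorem cV_3635 : allRange (fun x => forceN T.chkV x) 3635 727 = true := by decide +kernel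
theorem cV_4362 : allRange (fun x => forceN T.chkV x) 4362 727 = true := by decide +kernel

end Cfsg.Agent.Lib.Helper56.ON122760
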