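import Mathlib
import Cfsg.Agent.Lib.Helper56.TC
import Cfsg.Agent.Lib.Helper56.ON122760.D
set_option autoImplicit false
set_option maxRecDepth 1000000

namespace Cfsg.Agent.Lib.Helper56.ON122760

open Cfsg.Agent.Lib.Helper56.TC Cfsg.Agent.Lib.Helper56.TC.Tabs

theorem cV_5089 : allRange (fun x => forceN T.chkV x) 5089 727 = true := by decide +kernel
theorem cV_5816 : allRange (fun x => forceN T.chkV x) 5816 727 = true := by decide +kernel
theorem cV_6543 : allRange (fun x => forceN T.chkV x) 6543 727 = true := by decide +kernel
theorem cV_7270 : allRange (fun x => forceN T.chkV x) 7270 727 = true := by decide +kernel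
theorem cV_7997 : allRange (fun x => forceN T.chkV x) 7997 727 = true := by decide +kernel
theorem cV_8724 : allRange (fun x => forceN T.chkV x) 8724 727 = true := by decide +kernel
theorem cV_9451 : allRange (fun x => forceN T.chkV x) 9451 727 = true := by decide +kernel
theorem cV_10178 : allRange (fun x => forceN T.chkV x) 10178 727 = true := by decide +kernel
theorem cV_10905 : allRange (fun x => forceN T.chkV x) 10905 727 = true := by decide +kernel
theorem cV_11632 : allRange (fun x => forceN T.chkV x) 11632 727 = true := by decide +kernel
theorem cV_12359 : allRange (fun x => forceN T.chkV x) 12359 727 = true := by decide +kernel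
theorem cV_13086 : allRange (fun x => forceN T.chkV x) 13086 727 = true := by decide +kernel

end Cfsg.Agent.Lib.Helper56.ON122760
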