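import Mathlib
import Cfsg.Agent.Lib.Helper56.TC
import Cfsg.Agent.Lib.Helper56.ON122760.D
set_option autoImplicit false
set_option maxRecDepth 1000000

namespace Cfsg.Agent.Lib.Helper56.ON122760

open Cfsg.Agent.Lib.Helper56.TC Cfsg.Agent.Lib.Helper56.TC.Tabs

theorem cV_13813 : allRange (fun x => forceN T.chkV x) 13813 727 = true := by decide +kernel
theorem cV_14540 : allRange (fun x => forceN T.chkV x) 14540 727 = true := by decide +kernel
theorem cV_15267 : allRange (fun x => forceN T.chkV x) 15267 727 = true := by decide +kernel
theorem cV_15994 : allRange (fun x => forceN T.chkV x) 15994 727 = true := by decide +kernel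
theorem cV_16721 : allRange (fun x => forceN T.chkV x) 16721 727 = true := by decide +kernel
theorem cV_17448 : allRange (fun x => forceN T.chkV x) 17448 727 = true := by decide +kernel
theorem cV_18175 : allRange (fun x => forceN T.chkV x) 18175 727 = true := by decide +kernel
theorem cV_18902 : allRange (fun x => forceN T.chkV x) 18902 727 = true := by decide +kernel
theorem cV_19629 : allRange (fun x => forceN T.chkV x) 19629 727 = true := by decide +kernel
theorem cV_20356 : allRange (fun x => forceN T.chkV x) 20356 727 = true := by decide +kernel
theorem cV_21083 : allRange (fun x => forceN T.chkV x) 21083 727 = true := by decide +kernel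
theorem cV_21810 : allRange (fun x => forceN T.chkV x) 21810 727 = true := by decide +kernel

end Cfsg.Agent.Lib.Helper56.ON122760
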