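import Mathlib
import Cfsg.Agent.Lib.Helper56.TC
import Cfsg.Agent.Lib.Helper56.ON122760.D
set_option autoImplicit false
set_option maxRecDepth 1000000

namespace Cfsg.Agent.Lib.Helper56.ON122760

open Cfsg.Agent.Lib.Helper56.TC Cfsg.Agent.Lib.Helper56.TC.Tabs

theorem cV_22537 : allRange (fun x => forceN T.chkV x) 22537 727 = true := by decide +kernel
theorem cV_23264 : allRange (fun x => forceN T.chkV x) 23264 727 = true := by decide +kernel
theorem cV_23991 : allRange (fun x => forceN T.chkV x) 23991 727 = true := by decide +kernel
theorem cV_24718 : allRange (fun x => forceN T.chkV x) 24718 727 = true := by decide +kernel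
theorem cV_25445 : allRange (fun x => forceN T.chkV x) 25445 727 = true := by decide +kernel
theorem cV_26172 : allRange (fun x => forceN T.chkV x) 26172 727 = true := by decide +kernel
theorem cV_26899 : allRange (fun x => forceN T.chkV x) 26899 727 = true := by decide +kernel
theorem cV_27626 : allRange (fun x => forceN T.chkV x) 27626 727 = true := by decide +kernel
theorem cV_28353 : allRange (fun x => forceN T.chkV x) 28353 727 = true := by decide +kernel
theorem cV_29080 : allRange (fun x => forceN T.chkV x) 29080 727 = true := by decide +kernel
theorem cV_29807 : allRange (fun x => forceN T.chkV x) 29807 727 = true := by decide +kernel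
theorem cV_30534 : allRange (fun x => forceN T.chkV x) 30534 727 = true := by decide +kernel

end Cfsg.Agent.Lib.Helper56.ON122760
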