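import Mathlib
import Cfsg.Agent.Lib.Helper56.TC
import Cfsg.Agent.Lib.Helper56.ON122760.D
set_option autoImplicit false
set_option maxRecDepth 1000000

namespace Cfsg.Agent.Lib.Helper56.ON122760

open Cfsg.Agent.Lib.Helper56.TC Cfsg.Agent.Lib.Helper56.TC.Tabs

theorem cV_31261 : allRange (fun x => forceN T.chkV x) 31261 727 = true := by decide +kernel
theorem cV_31988 : allRange (fun x => forceN T.chkV x) 31988 727 = true := by decide +kernel
theorem cV_32715 : allRange (fun x => forceN T.chkV x) 32715 727 = true := by decide +kernel
theorem cV_33442 : allRange (fun x => forceN T.chkV x) 33442 727 = true := by decide +kernel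
theorem cV_34169 : allRange (fun x => forceN T.chkV x) 34169 727 = true := by decide +kernel
theorem cV_34896 : allRange (fun x => forceN T.chkV x) 34896 727 = true := by decide +kernel
theorem cV_35623 : allRange (fun x => forceN T.chkV x) 35623 727 = true := by decide +kernel
theorem cV_36350 : allRange (fun x => forceN T.chkV x) 36350 727 = true := by decide +kernel
theorem cV_37077 : allRange (fun x => forceN T.chkV x) 37077 727 = true := by decide +kernel
theorem cV_37804 : allRange (fun x => forceN T.chkV x) 37804 727 = true := by decide +kernel
theorem cV_38531 : allRange (fun x => forceN T.chkV x) 38531 727 = true := by decide +kernel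
theorem cV_39258 : allRange (fun x => forceN T.chkV x) 39258 727 = true := by decide +kernel

end Cfsg.Agent.Lib.Helper56.ON122760
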