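import Mathlib
import Cfsg.Agent.Lib.Helper56.TC
import Cfsg.Agent.Lib.Helper56.ON122760.D
set_option autoImplicit false
set_option maxRecDepth 1000000

namespace Cfsg.Agent.Lib.Helper56.ON122760

open Cfsg.Agent.Lib.Helper56.TC Cfsg.Agent.Lib.Helper56.TC.Tabs

theorem cN_23429 : allRange (fun x => forceN T.chkName x) 23429 662 = true := by decide +kernel
theorem cN_24091 : allRange (fun x => forceN T.chkName x) 24091 670 = true := by decide +kernel
theorem cN_24761 : allRange (fun x => forceN T.chkName x) 24761 655 = true := by decide +kernel
theorem cN_25416 : allRange (fun x => forceN T.chkName x) 25416 636 = true := by decide +kernel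
theorem cN_26052 : allRange (fun x => forceN T.chkName x) 26052 640 = true := by decide +kernel
theorem cN_26692 : allRange (fun x => forceN T.chkName x) 26692 639 = true := by decide +kernel
theorem cN_27331 : allRange (fun x => forceN T.chkName x) 27331 662 = true := by decide +kernel
theorem cN_27993 : allRange (fun x => forceN T.chkName x) 27993 673 = true := by decide +kernel
theorem cN_28666 : allRange (fun x => forceN T.chkName x) 28666 652 = true := by decide +kernel
theorem cN_29318 : allRange (fun x => forceN T.chkName x) 29318 647 = true := by decide +kernel
theorem cN_29965 : allRange (fun x => forceN T.chkName x) 29965 645 = true := by decide +kernel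
theorem cN_30610 : allRange (fun x => forceN T.chkName x) 30610 653 = true := by decide +kernel

end Cfsg.Agent.Lib.Helper56.ON122760
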