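import Mathlib
import Cfsg.Agent.Lib.Helper56.TC
import Cfsg.Agent.Lib.Helper56.ON122760.D
set_option autoImplicit false
set_option maxRecDepth 1000000

namespace Cfsg.Agent.Lib.Helper56.ON122760

open Cfsg.Agent.Lib.Helper56.TC Cfsg.Agent.Lib.Helper56.TC.Tabs

theorem cV_39985 : allRange (fun x => forceN T.chkV x) 39985 727 = true := by decide +kernel
theorem cV_40712 : allRange (fun x => forceN T.chkV x) 40712 727 = true := by decide +kernel
theorem cV_41439 : allRange (fun x => forceN T.chkV x) 41439 727 = true := by decide +kernel
theorem cV_42166 : allRange (fun x => forceN T.chkV x) 42166 727 = true := by decide +kernel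
theorem cV_42893 : allRange (fun x => forceN T.chkV x) 42893 727 = true := by decide +kernel
theorem cV_43620 : allRange (fun x => forceN T.chkV x) 43620 727 = true := by decide +kernel
theorem cV_44347 : allRange (fun x => forceN T.chkV x) 44347 727 = true := by decide +kernel
theorem cV_45074 : allRange (fun x => forceN T.chkV x) 45074 727 = true := by decide +kernel
theorem cV_45801 : allRange (fun x => forceN T.chkV x) 45801 727 = true := by decide +kernel
theorem cV_46528 : allRange (fun x => forceN T.chkV x) 46528 727 = true := by decide +kernel
theorem cV_47255 : allRange (fun x => forceN T.chkV x) 47255 727 = true := by decide +kernel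
theorem cV_47982 : allRange (fun x => forceN T.chkV x) 47982 727 = true := by decide +kernel

end Cfsg.Agent.Lib.Helper56.ON122760
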