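import Mathlib
import Cfsg.Agent.Lib.Helper56.TC
import Cfsg.Agent.Lib.Helper56.ON122760.D
set_option autoImplicit false
set_option maxRecDepth 1000000

namespace Cfsg.Agent.Lib.Helper56.ON122760

open Cfsg.Agent.Lib.Helper56.TC Cfsg.Agent.Lib.Helper56.TC.Tabs

theorem cV_48709 : allRange (fun x => forceN T.chkV x) 48709 727 = true := by decide +kernel
theorem cV_49436 : allRange (fun x => forceN T.chkV x) 49436 727 = true := by decide +kernel
theorem cV_50163 : allRange (fun x => forceN T.chkV x) 50163 727 = true := by decide +kernel
theorem cV_50890 : allRange (fun x => forceN T.chkV x) 50890 727 = true := by decide +kernel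
theorem cV_51617 : allRange (fun x => forceN T.chkV x) 51617 727 = true := by decide +kernel
theorem cV_52344 : allRange (fun x => forceN T.chkV x) 52344 727 = true := by decide +kernel
theorem cV_53071 : allRange (fun x => forceN T.chkV x) 53071 727 = true := by decide +kernel
theorem cV_53798 : allRange (fun x => forceN T.chkV x) 53798 727 = true := by decide +kernel
theorem cV_54525 : allRange (fun x => forceN T.chkV x) 54525 727 = true := by decide +kernel
theorem cV_55252 : allRange (fun x => forceN T.chkV x) 55252 727 = true := by decide +kernel
theorem cV_55979 : allRange (fun x => forceN T.chkV x) 55979 727 = true := by decide +kernel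
theorem cV_56706 : allRange (fun x => forceN T.chkV x) 56706 727 = true := by decide +kernel

end Cfsg.Agent.Lib.Helper56.ON122760
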