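import Mathlib
import Cfsg.Agent.Lib.Helper56.TC
import Cfsg.Agent.Lib.Helper56.ON122760.D
set_option autoImplicit false
set_option maxRecDepth 1000000

namespace Cfsg.Agent.Lib.Helper56.ON122760

open Cfsg.Agent.Lib.Helper56.TC Cfsg.Agent.Lib.Helper56.TC.Tabs

theorem cV_57433 : allRange (fun x => forceN T.chkV x) 57433 727 = true := by decide +kernel
theorem cV_58160 : allRange (fun x => forceN T.chkV x) 58160 727 = true := by decide +kernel
theorem cV_58887 : allRange (fun x => forceN T.chkV x) 58887 727 = true := by decide +kernel
theorem cV_59614 : allRange (fun x => forceN T.chkV x) 59614 727 = true := by decide +kernel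
theorem cV_60341 : allRange (fun x => forceN T.chkV x) 60341 727 = true := by decide +kernel
theorem cV_61068 : allRange (fun x => forceN T.chkV x) 61068 727 = true := by decide +kernel
theorem cV_61795 : allRange (fun x => forceN T.chkV x) 61795 727 = true := by decide +kernel
theorem cV_62522 : allRange (fun x => forceN T.chkV x) 62522 727 = true := by decide +kernel
theorem cV_63249 : allRange (fun x => forceN T.chkV x) 63249 727 = true := by decide +kernel
theorem cV_63976 : allRange (fun x => forceN T.chkV x) 63976 727 = true := by decide +kernel
theorem cV_64703 : allRange (fun x => forceN T.chkV x) 64703 727 = true := by decide +kernel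
theorem cV_65430 : allRange (fun x => forceN T.chkV x) 65430 727 = true := by decide +kernel

end Cfsg.Agent.Lib.Helper56.ON122760
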