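import Mathlib
import Cfsg.Agent.Lib.Helper56.TC
import Cfsg.Agent.Lib.Helper56.ON122760.D
set_option autoImplicit false
set_option maxRecDepth 1000000

namespace Cfsg.Agent.Lib.Helper56.ON122760

open Cfsg.Agent.Lib.Helper56.TC Cfsg.Agent.Lib.Helper56.TC.Tabs

theorem cV_66157 : allRange (fun x => forceN T.chkV x) 66157 727 = true := by decide +kernel
theorem cV_66884 : allRange (fun x => forceN T.chkV x) 66884 727 = true := by decide +kernel
theorem cV_67611 : allRange (fun x => forceN T.chkV x) 67611 727 = true := by decide +kernel
theorem cV_68338 : allRange (fun x => forceN T.chkV x) 68338 727 = true := by decide +kernel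
theorem cV_69065 : allRange (fun x => forceN T.chkV x) 69065 727 = true := by decide +kernel
theorem cV_69792 : allRange (fun x => forceN T.chkV x) 69792 727 = true := by decide +kernel
theorem cV_70519 : allRange (fun x => forceN T.chkV x) 70519 727 = true := by decide +kernel
theorem cV_71246 : allRange (fun x => forceN T.chkV x) 71246 727 = true := by decide +kernel
theorem cV_71973 : allRange (fun x => forceN T.chkV x) 71973 727 = true := by decide +kernel
theorem cV_72700 : allRange (fun x => forceN T.chkV x) 72700 727 = true := by decide +kernel
theorem cV_73427 : allRange (fun x => forceN T.chkV x) 73427 727 = true := by decide +kernel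
theorem cV_74154 : allRange (fun x => forceN T.chkV x) 74154 727 = true := by decide +kernel

end Cfsg.Agent.Lib.Helper56.ON122760
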