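import Mathlib
import Cfsg.Agent.Lib.Helper56.TC
import Cfsg.Agent.Lib.Helper56.ON122760.D
set_option autoImplicit false
set_option maxRecDepth 1000000

namespace Cfsg.Agent.Lib.Helper56.ON122760

open Cfsg.Agent.Lib.Helper56.TC Cfsg.Agent.Lib.Helper56.TC.Tabs

theorem cV_74881 : allRange (fun x => forceN T.chkV x) 74881 727 = true := by decide +kernel
theorem cV_75608 : allRange (fun x => forceN T.chkV x) 75608 727 = true := by decide +kernel
theorem cV_76335 : allRange (fun x => forceN T.chkV x) 76335 727 = true := by decide +kernel
theorem cV_77062 : allRange (fun x => forceN T.chkV x) 77062 727 = true := by decide +kernel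
theorem cV_77789 : allRange (fun x => forceN T.chkV x) 77789 727 = true := by decide +kernel
theorem cV_78516 : allRange (fun x => forceN T.chkV x) 78516 727 = true := by decide +kernel
theorem cV_79243 : allRange (fun x => forceN T.chkV x) 79243 727 = true := by decide +kernel
theorem cV_79970 : allRange (fun x => forceN T.chkV x) 79970 727 = true := by decide +kernel
theorem cV_80697 : allRange (fun x => forceN T.chkV x) 80697 727 = true := by decide +kernel
theorem cV_81424 : allRange (fun x => forceN T.chkV x) 81424 727 = true := by decide +kernel
theorem cV_82151 : allRange (fun x => forceN T.chkV x) 82151 727 = true := by decide +kernel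
theorem cV_82878 : allRange (fun x => forceN T.chkV x) 82878 727 = true := by decide +kernel

end Cfsg.Agent.Lib.Helper56.ON122760
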