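import Mathlib
import Cfsg.Agent.Lib.Helper56.TC
import Cfsg.Agent.Lib.Helper56.ON122760.D
set_option autoImplicit false
set_option maxRecDepth 1000000

namespace Cfsg.Agent.Lib.Helper56.ON122760

open Cfsg.Agent.Lib.Helper56.TC Cfsg.Agent.Lib.Helper56.TC.Tabs

theorem cV_83605 : allRange (fun x => forceN T.chkV x) 83605 727 = true := by decide +kernel
theorem cV_84332 : allRange (fun x => forceN T.chkV x) 84332 727 = true := by decide +kernel
theorem cV_85059 : allRange (fun x => forceN T.chkV x) 85059 727 = true := by decide +kernel
theorem cV_85786 : allRange (fun x => forceN T.chkV x) 85786 727 = true := by decide +kernel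
theorem cV_86513 : allRange (fun x => forceN T.chkV x) 86513 727 = true := by decide +kernel
theorem cV_87240 : allRange (fun x => forceN T.chkV x) 87240 727 = true := by decide +kernel
theorem cV_87967 : allRange (fun x => forceN T.chkV x) 87967 727 = true := by decide +kernel
theorem cV_88694 : allRange (fun x => forceN T.chkV x) 88694 727 = true := by decide +kernel
theorem cV_89421 : allRange (fun x => forceN T.chkV x) 89421 727 = true := by decide +kernel
theorem cV_90148 : allRange (fun x => forceN T.chkV x) 90148 727 = true := by decide +kernel
theorem cV_90875 : allRange (fun x => forceN T.chkV x) 90875 727 = true := by decide +kernel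
theorem cV_91602 : allRange (fun x => forceN T.chkV x) 91602 727 = true := by decide +kernel

end Cfsg.Agent.Lib.Helper56.ON122760
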