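import Mathlib
import Cfsg.Agent.Lib.Helper56.TC
import Cfsg.Agent.Lib.Helper56.ON122760.D
set_option autoImplicit false
set_option maxRecDepth 1000000

namespace Cfsg.Agent.Lib.Helper56.ON122760

open Cfsg.Agent.Lib.Helper56.TC Cfsg.Agent.Lib.Helper56.TC.Tabs

theorem cV_92329 : allRange (fun x => forceN T.chkV x) 92329 727 = true := by decide +kernel
theorem cV_93056 : allRange (fun x => forceN T.chkV x) 93056 727 = true := by decide +kernel
theorem cV_93783 : allRange (fun x => forceN T.chkV x) 93783 727 = true := by decide +kernel
theorem cV_94510 : allRange (fun x => forceN T.chkV x) 94510 727 = true := by decide +kernel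
theorem cV_95237 : allRange (fun x => forceN T.chkV x) 95237 727 = true := by decide +kernel
theorem cV_95964 : allRange (fun x => forceN T.chkV x) 95964 727 = true := by decide +kernel
theorem cV_96691 : allRange (fun x => forceN T.chkV x) 96691 727 = true := by decide +kernel
theorem cV_97418 : allRange (fun x => forceN T.chkV x) 97418 727 = true := by decide +kernel
theorem cV_98145 : allRange (fun x => forceN T.chkV x) 98145 727 = true := by decide +kernel
theorem cV_98872 : allRange (fun x => forceN T.chkV x) 98872 727 = true := by decide +kernel
theorem cV_99599 : allRange (fun x => forceN T.chkV x) 99599 727 = true := by decide +kernel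
theorem cV_100326 : allRange (fun x => forceN T.chkV x) 100326 727 = true := by decide +kernel

end Cfsg.Agent.Lib.Helper56.ON122760
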