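import Mathlib
import Cfsg.Agent.Lib.Helper56.TC
import Cfsg.Agent.Lib.Helper56.ON122760.D
set_option autoImplicit false
set_option maxRecDepth 1000000

namespace Cfsg.Agent.Lib.Helper56.ON122760

open Cfsg.Agent.Lib.Helper56.TC Cfsg.Agent.Lib.Helper56.TC.Tabs

theorem cV_101053 : allRange (fun x => forceN T.chkV x) 101053 727 = true := by decide +kernel
theorem cV_101780 : allRange (fun x => forceN T.chkV x) 101780 727 = true := by decide +kernel
theorem cV_102507 : allRange (fun x => forceN T.chkV x) 102507 727 = true := by decide +kernel
theorem cV_103234 : allRange (fun x => forceN T.chkV x) 103234 727 = true := by decide +kernel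
theorem cV_103961 : allRange (fun x => forceN T.chkV x) 103961 727 = true := by decide +kernel
theorem cV_104688 : allRange (fun x => forceN T.chkV x) 104688 727 = true := by decide +kernel
theorem cV_105415 : allRange (fun x => forceN T.chkV x) 105415 727 = true := by decide +kernel
theorem cV_106142 : allRange (fun x => forceN T.chkV x) 106142 727 = true := by decide +kernel
theorem cV_106869 : allRange (fun x => forceN T.chkV x) 106869 727 = true := by decide +kernel
theorem cV_107596 : allRange (fun x => forceN T.chkV x) 107596 727 = true := by decide +kernel
theorem cV_108323 : allRange (fun x => forceN T.chkV x) 108323 727 = true := by decide +kernel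
theorem cV_109050 : allRange (fun x => forceN T.chkV x) 109050 727 = true := by decide +kernel

end Cfsg.Agent.Lib.Helper56.ON122760
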