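import Mathlib
import Cfsg.Agent.Lib.Helper56.TC
import Cfsg.Agent.Lib.Helper56.ON122760.D
set_option autoImplicit false
set_option maxRecDepth 1000000

namespace Cfsg.Agent.Lib.Helper56.ON122760

open Cfsg.Agent.Lib.Helper56.TC Cfsg.Agent.Lib.Helper56.TC.Tabs

theorem cV_109777 : allRange (fun x => forceN T.chkV x) 109777 727 = true := by decide +kernel
theorem cV_110504 : allRange (fun x => forceN T.chkV x) 110504 727 = true := by decide +kernel
theorem cV_111231 : allRange (fun x => forceN T.chkV x) 111231 727 = true := by decide +kernel
theorem cV_111958 : allRange (fun x => forceN T.chkV x) 111958 727 = true := by decide +kernel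
theorem cV_112685 : allRange (fun x => forceN T.chkV x) 112685 727 = true := by decide +kernel
theorem cV_113412 : allRange (fun x => forceN T.chkV x) 113412 727 = true := by decide +kernel
theorem cV_114139 : allRange (fun x => forceN T.chkV x) 114139 727 = true := by decide +kernel
theorem cV_114866 : allRange (fun x => forceN T.chkV x) 114866 727 = true := by decide +kernel
theorem cV_115593 : allRange (fun x => forceN T.chkV x) 115593 727 = true := by decide +kernel
theorem cV_116320 : allRange (fun x => forceN T.chkV x) 116320 727 = true := by decide +kernel
theorem cV_117047 : allRange (fun x => forceN T.chkV x) 117047 727 = true := by decide +kernel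
theorem cV_117774 : allRange (fun x => forceN T.chkV x) 117774 727 = true := by decide +kernel

end Cfsg.Agent.Lib.Helper56.ON122760
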