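import Mathlib
import Cfsg.Agent.Lib.Helper56.TC
import Cfsg.Agent.Lib.Helper56.ON122760.D
set_option autoImplicit false
set_option maxRecDepth 1000000

namespace Cfsg.Agent.Lib.Helper56.ON122760

open Cfsg.Agent.Lib.Helper56.TC Cfsg.Agent.Lib.Helper56.TC.Tabs

theorem cV_118501 : allRange (fun x => forceN T.chkV x) 118501 727 = true := by decide +kernel
theorem cV_119228 : allRange (fun x => forceN T.chkV x) 119228 727 = true := by decide +kernel
theorem cV_119955 : allRange (fun x => forceN T.chkV x) 119955 727 = true := by decide +kernel
theorem cV_120682 : allRange (fun x => forceN T.chkV x) 120682 727 = true := by decide +kernel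
theorem cV_121409 : allRange (fun x => forceN T.chkV x) 121409 727 = true := by decide +kernel
theorem cV_122136 : allRange (fun x => forceN T.chkV x) 122136 624 = true := by decide +kernel

end Cfsg.Agent.Lib.Helper56.ON122760
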