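import Mathlib
import Cfsg.Agent.Lib.Helper56.TC
import Cfsg.Agent.Lib.Helper56.ON122760.D
set_option autoImplicit false
set_option maxRecDepth 1000000

namespace Cfsg.Agent.Lib.Helper56.ON122760

open Cfsg.Agent.Lib.Helper56.TC Cfsg.Agent.Lib.Helper56.TC.Tabs

theorem cN_31263 : allRange (fun x => forceN T.chkName x) 31263 650 = true := by decide +kernel
theorem cN_31913 : allRange (fun x => forceN T.chkName x) 31913 651 = true := by decide +kernel
theorem cN_32564 : allRange (fun x => forceN T.chkName x) 32564 669 = true := by decide +kernel
theorem cN_33233 : allRange (fun x => forceN T.chkName x) 33233 663 = true := by decide +kernel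
theorem cN_33896 : allRange (fun x => forceN T.chkName x) 33896 654 = true := by decide +kernel
theorem cN_34550 : allRange (fun x => forceN T.chkName x) 34550 665 = true := by decide +kernel
theorem cN_35215 : allRange (fun x => forceN T.chkName x) 35215 640 = true := by decide +kernel
theorem cN_35855 : allRange (fun x => forceN T.chkName x) 35855 649 = true := by decide +kernel
theorem cN_36504 : allRange (fun x => forceN T.chkName x) 36504 644 = true := by decide +kernel
theorem cN_37148 : allRange (fun x => forceN T.chkName x) 37148 654 = true := by decide +kernel
theorem cN_37802 : allRange (fun x => forceN T.chkName x) 37802 653 = true := by decide +kernel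
theorem cN_38455 : allRange (fun x => forceN T.chkName x) 38455 664 = true := by decide +kernel

end Cfsg.Agent.Lib.Helper56.ON122760
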