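import Mathlib
import Cfsg.Agent.Lib.Helper56.TC
import Cfsg.Agent.Lib.Helper56.ON122760.D
set_option autoImplicit false
set_option maxRecDepth 1000000

namespace Cfsg.Agent.Lib.Helper56.ON122760

open Cfsg.Agent.Lib.Helper56.TC Cfsg.Agent.Lib.Helper56.TC.Tabs

theorem cN_39119 : allRange (fun x => forceN T.chkName x) 39119 666 = true := by decide +kernel
theorem cN_39785 : allRange (fun x => forceN T.chkName x) 39785 660 = true := by decide +kernel
theorem cN_40445 : allRange (fun x => forceN T.chkName x) 40445 640 = true := by decide +kernel
theorem cN_41085 : allRange (fun x => forceN T.chkName x) 41085 646 = true := by decide +kernel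
theorem cN_41731 : allRange (fun x => forceN T.chkName x) 41731 637 = true := by decide +kernel
theorem cN_42368 : allRange (fun x => forceN T.chkName x) 42368 642 = true := by decide +kernel
theorem cN_43010 : allRange (fun x => forceN T.chkName x) 43010 649 = true := by decide +kernel
theorem cN_43659 : allRange (fun x => forceN T.chkName x) 43659 647 = true := by decide +kernel
theorem cN_44306 : allRange (fun x => forceN T.chkName x) 44306 641 = true := by decide +kernel
theorem cN_44947 : allRange (fun x => forceN T.chkName x) 44947 644 = true := by decide +kernel
theorem cN_45591 : allRange (fun x => forceN T.chkName x) 45591 655 = true := by decide +kernel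
theorem cN_46246 : allRange (fun x => forceN T.chkName x) 46246 668 = true := by decide +kernel

end Cfsg.Agent.Lib.Helper56.ON122760
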