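import Mathlib
import Cfsg.Agent.Lib.Helper56.TC
import Cfsg.Agent.Lib.Helper56.ON122760.D
set_option autoImplicit false
set_option maxRecDepth 1000000

namespace Cfsg.Agent.Lib.Helper56.ON122760

open Cfsg.Agent.Lib.Helper56.TC Cfsg.Agent.Lib.Helper56.TC.Tabs

theorem cN_46914 : allRange (fun x => forceN T.chkName x) 46914 655 = true := by decide +kernel
theorem cN_47569 : allRange (fun x => forceN T.chkName x) 47569 662 = true := by decide +kernel
theorem cN_48231 : allRange (fun x => forceN T.chkName x) 48231 650 = true := by decide +kernel
theorem cN_48881 : allRange (fun x => forceN T.chkName x) 48881 659 = true := by decide +kernel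
theorem cN_49540 : allRange (fun x => forceN T.chkName x) 49540 653 = true := by decide +kernel
theorem cN_50193 : allRange (fun x => forceN T.chkName x) 50193 632 = true := by decide +kernel
theorem cN_50825 : allRange (fun x => forceN T.chkName x) 50825 617 = true := by decide +kernel
theorem cN_51442 : allRange (fun x => forceN T.chkName x) 51442 617 = true := by decide +kernel
theorem cN_52059 : allRange (fun x => forceN T.chkName x) 52059 621 = true := by decide +kernel
theorem cN_52680 : allRange (fun x => forceN T.chkName x) 52680 613 = true := by decide +kernel
theorem cN_53293 : allRange (fun x => forceN T.chkName x) 53293 614 = true := by decide +kernel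
theorem cN_53907 : allRange (fun x => forceN T.chkName x) 53907 610 = true := by decide +kernel

end Cfsg.Agent.Lib.Helper56.ON122760
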