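import Mathlib
import Cfsg.Agent.Lib.Helper56.TC
import Cfsg.Agent.Lib.Helper56.ON122760.D
set_option autoImplicit false
set_option maxRecDepth 1000000

namespace Cfsg.Agent.Lib.Helper56.ON122760

open Cfsg.Agent.Lib.Helper56.TC Cfsg.Agent.Lib.Helper56.TC.Tabs

theorem cN_54517 : allRange (fun x => forceN T.chkName x) 54517 622 = true := by decide +kernel
theorem cN_55139 : allRange (fun x => forceN T.chkName x) 55139 610 = true := by decide +kernel
theorem cN_55749 : allRange (fun x => forceN T.chkName x) 55749 596 = true := by decide +kernel
theorem cN_56345 : allRange (fun x => forceN T.chkName x) 56345 595 = true := by decide +kernel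
theorem cN_56940 : allRange (fun x => forceN T.chkName x) 56940 588 = true := by decide +kernel
theorem cN_57528 : allRange (fun x => forceN T.chkName x) 57528 604 = true := by decide +kernel
theorem cN_58132 : allRange (fun x => forceN T.chkName x) 58132 585 = true := by decide +kernel
theorem cN_58717 : allRange (fun x => forceN T.chkName x) 58717 599 = true := by decide +kernel
theorem cN_59316 : allRange (fun x => forceN T.chkName x) 59316 591 = true := by decide +kernel
theorem cN_59907 : allRange (fun x => forceN T.chkName x) 59907 588 = true := by decide +kernel
theorem cN_60495 : allRange (fun x => forceN T.chkName x) 60495 596 = true := by decide +kernel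
theorem cN_61091 : allRange (fun x => forceN T.chkName x) 61091 594 = true := by decide +kernel

end Cfsg.Agent.Lib.Helper56.ON122760
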