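import Mathlib
import Cfsg.Agent.Lib.Helper56.TC
import Cfsg.Agent.Lib.Helper56.ON122760.D
set_option autoImplicit false
set_option maxRecDepth 1000000

namespace Cfsg.Agent.Lib.Helper56.ON122760

open Cfsg.Agent.Lib.Helper56.TC Cfsg.Agent.Lib.Helper56.TC.Tabs

theorem cN_61685 : allRange (fun x => forceN T.chkName x) 61685 593 = true := by decide +kernel
theorem cN_62278 : allRange (fun x => forceN T.chkName x) 62278 578 = true := by decide +kernel
theorem cN_62856 : allRange (fun x => forceN T.chkName x) 62856 599 = true := by decide +kernel
theorem cN_63455 : allRange (fun x => forceN T.chkName x) 63455 597 = true := by decide +kernel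
theorem cN_64052 : allRange (fun x => forceN T.chkName x) 64052 581 = true := by decide +kernel
theorem cN_64633 : allRange (fun x => forceN T.chkName x) 64633 577 = true := by decide +kernel
theorem cN_65210 : allRange (fun x => forceN T.chkName x) 65210 575 = true := by decide +kernel
theorem cN_65785 : allRange (fun x => forceN T.chkName x) 65785 580 = true := by decide +kernel
theorem cN_66365 : allRange (fun x => forceN T.chkName x) 66365 562 = true := by decide +kernel
theorem cN_66927 : allRange (fun x => forceN T.chkName x) 66927 567 = true := by decide +kernel
theorem cN_67494 : allRange (fun x => forceN T.chkName x) 67494 576 = true := by decide +kernel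
theorem cN_68070 : allRange (fun x => forceN T.chkName x) 68070 579 = true := by decide +kernel

end Cfsg.Agent.Lib.Helper56.ON122760
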