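import Mathlib
import Cfsg.Agent.Lib.Helper56.TC
import Cfsg.Agent.Lib.Helper56.ON122760.D
set_option autoImplicit false
set_option maxRecDepth 1000000

namespace Cfsg.Agent.Lib.Helper56.ON122760

open Cfsg.Agent.Lib.Helper56.TC Cfsg.Agent.Lib.Helper56.TC.Tabs

theorem cN_68649 : allRange (fun x => forceN T.chkName x) 68649 579 = true := by decide +kernel
theorem cN_69228 : allRange (fun x => forceN T.chkName x) 69228 565 = true := by decide +kernel
theorem cN_69793 : allRange (fun x => forceN T.chkName x) 69793 570 = true := by decide +kernel
theorem cN_70363 : allRange (fun x => forceN T.chkName x) 70363 571 = true := by decide +kernel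
theorem cN_70934 : allRange (fun x => forceN T.chkName x) 70934 563 = true := by decide +kernel
theorem cN_71497 : allRange (fun x => forceN T.chkName x) 71497 564 = true := by decide +kernel
theorem cN_72061 : allRange (fun x => forceN T.chkName x) 72061 568 = true := by decide +kernel
theorem cN_72629 : allRange (fun x => forceN T.chkName x) 72629 563 = true := by decide +kernel
theorem cN_73192 : allRange (fun x => forceN T.chkName x) 73192 560 = true := by decide +kernel
theorem cN_73752 : allRange (fun x => forceN T.chkName x) 73752 559 = true := by decide +kernel
theorem cN_74311 : allRange (fun x => forceN T.chkName x) 74311 558 = true := by decide +kernel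
theorem cN_74869 : allRange (fun x => forceN T.chkName x) 74869 560 = true := by decide +kernel

end Cfsg.Agent.Lib.Helper56.ON122760
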